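import Cfsg.Agent.Lib.SporPres.FiTwentyTwo.OrthData
import Cfsg.Agent.Lib.Classical.QuadOmega.Main

/-! # POmega(7, 3) on a class of 351 nonsingular points -/

set_option autoImplicit false

namespace Cfsg.Agent.Lib.SporPres.FiTwentyTwo.Orth

open Cfsg.Agent.Lib.Coset Matrix

/-- The coordinates. -/
abbrev Idx := Unit ⊕ (Fin 3 ⊕ Fin 3)

/-- The vectors. -/
abbrev Vec := Idx → ZMod 3

/-- The form. -/
abbrev Q (x : Vec) : ZMod 3 := Cfsg.quadFormOdd 3 (ZMod 3) x

/-- The position of a coordinate. -/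
def slot : Idx → ℕ
  | .inl _ => 0
  | .inr (.inl i) => 1 + i
  | .inr (.inr i) => 4 + i

/-- The code of a vector. -/
def enc (x : Vec) : ℕ :=
  (x (.inl ())).val + 3 * (x (.inr (.inl 0))).val + 9 * (x (.inr (.inl 1))).val +
    27 * (x (.inr (.inl 2))).val + 81 * (x (.inr (.inr 0))).val + 243 * (x (.inr (.inr 1))).val +
    729 * (x (.inr (.inr 2))).val

/-- The vector of a code. -/
def vecOf (k : ℕ) : Vec := fun i => ((k / 3 ^ slot i % 3 : ℕ) : ZMod 3)

theorem enc_lt (x : Vec) : enc x < 2187 := by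
  have h : ∀ i, (x i).val < 3 := fun i => ZMod.val_lt _
  have := h (.inl ()); have := h (.inr (.inl 0)); have := h (.inr (.inl 1))
  have := h (.inr (.inl 2)); have := h (.inr (.inr 0)); have := h (.inr (.inr 1))
  have := h (.inr (.inr 2))
  unfold enc
  omega

theorem vecOf_enc (x : Vec) : vecOf (enc x) = x := by
  have h : ∀ i, (x i).val < 3 := fun i => ZMod.val_lt _
  have := h (.inl ()); have := h (.inr (.inl 0)); have := h (.inr (.inl 1))
  have := h (.inr (.inl 2)); have := h (.inr (.inr 0)); have := h (.inr (.inr 1))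
  have := h (.inr (.inr 2))
  funext i
  have hd : enc x / 3 ^ slot i % 3 = (x i).val := by
    rcases i with u | i | i
    · show enc x / 3 ^ 0 % 3 = (x (.inl ())).val
      simp [enc]; omega
    all_goals fin_cases i <;> simp [slot, enc] <;> omega
  rw [vecOf, hd]
  exact ZMod.natCast_zmod_val (x i)

/-- The point of a vector. -/
noncomputable def pidx (x : Vec) : ℕ := nodeOf pidS (enc x)

/-- The vector of a point. -/
noncomputable def repV (i : ℕ) : Vec := vecOf (nodeOf repS i)

theorem table_chunk : ∀ c : ℕ, c < 9 → ∀ j : Fin 243, pidx (vecOf (c * 243 + (j : ℕ))) < 351 ∧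
    (Q (vecOf (c * 243 + (j : ℕ))) = 2 →
      vecOf (c * 243 + (j : ℕ)) = repV (pidx (vecOf (c * 243 + (j : ℕ)))) ∨
        vecOf (c * 243 + (j : ℕ)) = -repV (pidx (vecOf (c * 243 + (j : ℕ))))) := by
  intro c hc
  interval_cases c <;> decide +kernel

theorem table_spec (x : Vec) : pidx x < 351 ∧
    (Q x = 2 → x = repV (pidx x) ∨ x = -repV (pidx x)) := by
  have hlt := enc_lt x
  have h := table_chunk (enc x / 243) (by omega) ⟨enc x % 243, by omega⟩
  rw [show enc x / 243 * 243 + ((⟨enc x % 243, by omega⟩ : Fin 243) : ℕ) = enc x from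
    Nat.div_add_mod' _ _, vecOf_enc] at h
  exact h

theorem rep_spec : ∀ i : Fin 351, Q (repV i) = 2 ∧ Q (-repV i) = 2 ∧ pidx (repV i) = i ∧
    pidx (-repV i) = i := by decide +kernel

theorem pidx_neg {x : Vec} (hx : Q x = 2) : pidx (-x) = pidx x := by
  have hr := rep_spec ⟨pidx x, (table_spec x).1⟩
  rcases (table_spec x).2 hx with h | h
  · conv_lhs => rw [h]
    exact hr.2.2.2
  · conv_lhs => rw [h, neg_neg]
    exact hr.2.2.1

/-- The isometry group. -/
abbrev Iso := Cfsg.isometryGroup (ZMod 3) (Cfsg.quadFormOdd 3 (ZMod 3))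

/-- The matrix of an isometry. -/
abbrev mat (A : Iso) : Matrix Idx Idx (ZMod 3) :=
  ((A : Matrix.GeneralLinearGroup Idx (ZMod 3)) : Matrix Idx Idx (ZMod 3))

theorem mat_mul (A B : Iso) : mat (A * B) = mat A * mat B := rfl

theorem mat_one : mat (1 : Iso) = 1 := rfl

theorem mat_Q (A : Iso) (x : Vec) : Q (mat A *ᵥ x) = Q x := A.2 x x

/-- The action on the points. -/
noncomputable def moveFn (A : Iso) (i : Fin 351) : Fin 351 :=
  ⟨pidx (mat A *ᵥ repV i), (table_spec _).1⟩

theorem moveFn_mul (A B : Iso) (i : Fin 351) : moveFn A (moveFn B i) = moveFn (A * B) i := by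
  refine Fin.ext ?_
  show pidx (mat A *ᵥ repV (pidx (mat B *ᵥ repV i))) = pidx (mat (A * B) *ᵥ repV i)
  have hy : Q (mat B *ᵥ repV i) = 2 := (mat_Q B _).trans (rep_spec i).1
  set j : Fin 351 := ⟨pidx (mat B *ᵥ repV i), (table_spec _).1⟩
  rw [mat_mul, ← mulVec_mulVec]
  rcases (table_spec _).2 hy with h | h
  · conv_rhs => rw [h]
  · conv_rhs => rw [h, mulVec_neg, pidx_neg ((mat_Q A _).trans (rep_spec j).1)]

theorem moveFn_one (i : Fin 351) : moveFn 1 i = i := Fin.ext (by
  show pidx (mat (1 : Iso) *ᵥ repV i) = i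
  rw [mat_one, one_mulVec]
  exact (rep_spec i).2.2.1)

/-- The permutations of the points. -/
noncomputable def move : Iso →* Equiv.Perm (Fin 351) where
  toFun A := ⟨moveFn A, moveFn A⁻¹, fun i => by rw [moveFn_mul, inv_mul_cancel, moveFn_one],
    fun i => by rw [moveFn_mul, mul_inv_cancel, moveFn_one]⟩
  map_one' := Equiv.ext moveFn_one
  map_mul' A B := Equiv.ext fun i => (moveFn_mul A B i).symm

/-- The matrices of the negated reflections. -/
def refMat (g : ℕ) : Matrix Idx Idx (ZMod 3) :=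
  let v : Vec := fun i => (((roots.getD g []).getD (slot i) 0 : ℕ) : ZMod 3)
  Matrix.of fun i j => (if i = j then -1 else 0) +
    (Q (Pi.single j 1 + v) - Q (Pi.single j 1) - Q v) * 2 * v i

theorem ref_inv : ∀ g : Fin 8, refMat g * refMat g = 1 := by decide +kernel

theorem ref_chunk : ∀ c : ℕ, c < 9 → ∀ g : Fin 8, ∀ j : Fin 243,
    Q (refMat g *ᵥ vecOf (c * 243 + (j : ℕ))) = Q (vecOf (c * 243 + (j : ℕ))) := by
  intro c hc
  interval_cases c <;> decide +kernel

theorem ref_Q (g : Fin 8) (x : Vec) : Q (refMat g *ᵥ x) = Q x := by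
  have hlt := enc_lt x
  have h := ref_chunk (enc x / 243) (by omega) g ⟨enc x % 243, by omega⟩
  rw [show enc x / 243 * 243 + ((⟨enc x % 243, by omega⟩ : Fin 243) : ℕ) = enc x from
    Nat.div_add_mod' _ _, vecOf_enc] at h
  exact h

/-- The negated reflections. -/
def refl' (g : Fin 8) : Iso :=
  ⟨⟨refMat g, refMat g, ref_inv g, ref_inv g⟩, fun u _ => ref_Q g u⟩

theorem ref_act : ∀ g : Fin 8, ∀ i : Fin 351, pidx (refMat g *ᵥ repV i) = tabO.act g i := by
  decide +kernel

theorem goodO : tabO.Good :=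
  Tab.good_of_invOK (B := 351) (fun k hk => by
    have : k = 0 := by
      have : tabO.size = 351 := rfl
      omega
    subst this
    decide +kernel) (by norm_num)

/-- The group generated by the reflections on the points. -/
abbrev refGroup : Subgroup (Equiv.Perm (Fin 351)) :=
  Subgroup.closure (tabO.perm goodO '' Set.Iio 8)

theorem perm_mem_move (g : ℕ) (hg : g < 8) : tabO.perm goodO g ∈ move.range :=
  ⟨refl' ⟨g, hg⟩, Equiv.ext fun i => Fin.ext (by
    rw [Tab.perm, dif_pos (show g < tabO.gens from hg)]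
    exact ref_act ⟨g, hg⟩ i)⟩

theorem refGroup_le : refGroup ≤ move.range :=
  (Subgroup.closure_le _).2 (by rintro _ ⟨g, hg, rfl⟩; exact perm_mem_move g hg)

theorem refGroup_ge : 4585351680 ≤ Nat.card refGroup := by
  have h : Tab.chainCard chainO = 4585351680 := by decide +kernel
  refine h.symm.le.trans ?_
  refine tabO.chain_spec goodO (by decide +kernel) fun l hl w hw => ?_
  have hl' : (chainO.all fun l => lettersBelow 8 l.2.1) = true := by decide +kernel
  exact mem_closure_letters (List.all_eq_true.1 hl' l hl) w hw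

/-- Pairs of reflections with product of order three. -/
def braids : List (ℕ × ℕ) := [(0, 1), (1, 2), (2, 3), (3, 4), (4, 5), (2, 6), (6, 7)]

/-- The odd relation. -/
def oddWord : List ℕ := Coset.rep 9 [0, 1, 2, 3, 4, 5, 6]

theorem relations : ∀ i < tabO.size,
    ∀ w ∈ oddWord :: braids.map (fun p => Coset.rep 3 [p.1, p.2]), tabO.app w i = i :=
  Tab.relOK_spec (B := 351) (by norm_num) fun k hk => by
    have : k = 0 := by
      have : tabO.size = 351 := rfl
      omega
    subst this
    decide +kernel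

theorem rel_one {w : List ℕ} (hw : w ∈ oddWord :: braids.map (fun p => Coset.rep 3 [p.1, p.2])) :
    ev (tabO.perm goodO) w = 1 := by
  have hl : ((oddWord :: braids.map (fun p => Coset.rep 3 [p.1, p.2])).all fun w =>
      w.all (· < tabO.gens)) = true := by decide +kernel
  exact Tab.ev_perm_eq_one goodO
    (fun g hg => decide_eq_true_eq.mp (List.all_eq_true.1 (List.all_eq_true.1 hl w hw) g hg))
    fun i hi => relations i hi w hw

theorem refGroup_perfect : refGroup ≤ ⁅refGroup, refGroup⁆ := by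
  let x : ℕ → refGroup := fun g =>
    if h : g < 8 then ⟨_, Subgroup.subset_closure ⟨g, h, rfl⟩⟩ else 1
  have hxv : ∀ g < 8, ((x g : refGroup) : Equiv.Perm (Fin 351)) = tabO.perm goodO g := fun g hg => by
    simp only [x, dif_pos hg]; rfl
  let q := Abelianization.of (G := refGroup)
  have hev : ∀ w : List ℕ, (∀ a ∈ w, a < 8) →
      (((w.map x).prod : refGroup) : Equiv.Perm (Fin 351)) = ev (tabO.perm goodO) w := by
    intro w
    induction w with
    | nil => intro _; rfl
    | cons a w ih =>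
      intro h
      rw [List.map_cons, List.prod_cons, Subgroup.coe_mul, ih fun b hb => h b (List.mem_cons_of_mem _ hb),
        hxv a (h a (by simp)), ev_cons]
      rfl
  have hsq : ∀ g < 8, q (x g) * q (x g) = 1 := fun g hg => by
    rw [← map_mul]
    refine (congrArg q (Subtype.ext ?_ : x g * x g = 1)).trans (map_one q)
    rw [Subgroup.coe_mul, hxv g hg]
    exact Tab.perm_mul_self goodO g
  have hone : ∀ w ∈ oddWord :: braids.map (fun p => Coset.rep 3 [p.1, p.2]),
      ev (fun a => q (x a)) w = 1 := fun w hw => by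
    have hl : ((oddWord :: braids.map (fun p => Coset.rep 3 [p.1, p.2])).all fun w =>
        w.all (· < 8)) = true := by decide +kernel
    have hx : (w.map x).prod = 1 := Subtype.ext ((hev w fun a ha =>
      decide_eq_true_eq.mp (List.all_eq_true.1 (List.all_eq_true.1 hl w hw) a ha)).trans (rel_one hw))
    rw [ev, show w.map (fun a => q (x a)) = (w.map x).map q from (List.map_map ..).symm,
      ← map_list_prod, hx, map_one]
  have hbr : ∀ p ∈ braids, q (x p.1) = q (x p.2) := fun p hp => by
    have hlt : p.1 < 8 ∧ p.2 < 8 := (by decide +kernel : ∀ p ∈ braids, p.1 < 8 ∧ p.2 < 8) p hp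
    have h := hone (Coset.rep 3 [p.1, p.2])
      (List.mem_cons_of_mem _ (List.mem_map.2 ⟨p, hp, rfl⟩))
    rw [ev_rep, ev_cons, ev_cons, ev_nil, mul_one, pow_succ, mul_pow, pow_two, pow_two,
      hsq _ hlt.1, hsq _ hlt.2, mul_one, one_mul] at h
    exact (mul_eq_one_iff_eq_inv.1 h).trans (inv_eq_of_mul_eq_one_right (hsq _ hlt.2))
  have e : ∀ i j, (i, j) ∈ braids → q (x i) = q (x j) := fun i j h => hbr (i, j) h
  have e1 := e 0 1 (by simp [braids])
  have e2 := e1.trans (e 1 2 (by simp [braids]))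
  have e3 := e2.trans (e 2 3 (by simp [braids]))
  have e4 := e3.trans (e 3 4 (by simp [braids]))
  have e5 := e4.trans (e 4 5 (by simp [braids]))
  have e6 := e2.trans (e 2 6 (by simp [braids]))
  have e7 := e6.trans (e 6 7 (by simp [braids]))
  have h0 : q (x 0) = 1 := by
    have h := hone oddWord (List.mem_cons_self ..)
    rw [oddWord, ev_rep] at h
    simp only [ev_cons, ev_nil, mul_one, ← e1, ← e2, ← e3, ← e4, ← e5, ← e6] at h
    have h7 : q (x 0) ^ 7 = q (x 0) * (q (x 0) * (q (x 0) * (q (x 0) * (q (x 0) *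
        (q (x 0) * q (x 0)))))) := by simp only [pow_succ', pow_zero, mul_one]
    have h63 : q (x 0) ^ 63 = 1 := by rw [show (63 : ℕ) = 7 * 9 from rfl, pow_mul, h7]; exact h
    rwa [show (63 : ℕ) = 2 * 31 + 1 from rfl, pow_succ, pow_mul, pow_two, hsq 0 (by norm_num),
      one_pow, one_mul] at h63
  refine (Subgroup.closure_le _).2 ?_
  rintro _ ⟨g, hg, rfl⟩
  rw [Set.mem_Iio] at hg
  have hq : q (x g) = 1 := by
    interval_cases g
    exacts [h0, e1 ▸ h0, e2 ▸ h0, e3 ▸ h0, e4 ▸ h0, e5 ▸ h0, e6 ▸ h0, e7 ▸ h0]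
  have hm : x g ∈ commutator refGroup := (QuotientGroup.eq_one_iff (x g)).1 hq
  have h2 : ((x g : refGroup) : Equiv.Perm (Fin 351)) ∈ (commutator refGroup).map refGroup.subtype :=
    ⟨x g, hm, rfl⟩
  rw [commutator_def, Subgroup.map_commutator, ← MonoidHom.range_eq_map, Subgroup.range_subtype,
    hxv g hg] at h2
  exact h2

/-- The action of the commutator subgroup. -/
noncomputable def omegaMove : Cfsg.Omega (ZMod 3) (Cfsg.quadFormOdd 3 (ZMod 3)) →* Equiv.Perm (Fin 351) :=
  move.comp (Subgroup.subtype _)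

theorem refGroup_le_omega : refGroup ≤ omegaMove.range := by
  refine refGroup_perfect.trans ?_
  rw [omegaMove, MonoidHom.range_comp, Subgroup.range_subtype,
    show Cfsg.Omega (ZMod 3) (Cfsg.quadFormOdd 3 (ZMod 3)) = ⁅(⊤ : Subgroup Iso), ⊤⁆ from rfl,
    Subgroup.map_commutator, ← MonoidHom.range_eq_map]
  exact Subgroup.commutator_mono refGroup_le refGroup_le

theorem stab_fixes : (chainO1.2.1.all fun w => tabO.app w 0 == 0 && w.all (· < 8)) = true := by
  decide +kernel

theorem stab_moves : (List.range 351).all (fun x => x == 0 ||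
    chainO1.2.1.any fun w => !(tabO.app w x == x)) = true := by decide +kernel

theorem ev_mem {w : List ℕ} (hw : ∀ a ∈ w, a < 8) : ev (tabO.perm goodO) w ∈ refGroup :=
  ev_mem_closure _ fun a ha => Subgroup.subset_closure ⟨a, hw a ha, rfl⟩

theorem eq_one_of_commute (σ : Equiv.Perm (Fin 351))
    (h : ∀ τ ∈ refGroup, σ * τ = τ * σ) : σ = 1 := by
  have hc : ∀ τ ∈ refGroup, ∀ i, σ (τ i) = τ (σ i) := fun τ hτ i =>
    congrArg (fun p : Equiv.Perm (Fin 351) => p i) (h τ hτ)
  have h0 : σ 0 = 0 := by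
    by_contra hne
    have h' := List.all_eq_true.1 stab_moves _ (List.mem_range.2 (σ 0).2)
    simp only [Bool.or_eq_true, beq_iff_eq, List.any_eq_true, Bool.not_eq_true', beq_eq_false_iff_ne]
      at h'
    obtain ⟨w, hw, hmove⟩ := h'.resolve_left fun e => hne (Fin.ext e)
    have hfix := List.all_eq_true.1 stab_fixes w hw
    simp only [Bool.and_eq_true, beq_iff_eq, List.all_eq_true, decide_eq_true_eq] at hfix
    have h3 : ev (tabO.perm goodO) w (⟨0, by decide +kernel⟩ : Fin tabO.size) =
        ⟨0, by decide +kernel⟩ :=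
      Fin.ext ((Tab.ev_perm_apply goodO w hfix.2 _).trans hfix.1)
    have h4 : ev (tabO.perm goodO) w (σ 0) = σ 0 :=
      (hc _ (ev_mem hfix.2) 0).symm.trans (congrArg (⇑σ) h3)
    exact hmove ((Tab.ev_perm_apply goodO w hfix.2 _).symm.trans (congrArg Fin.val h4))
  refine Equiv.ext fun i => ?_
  have hok : tabO.orbitOK chainO0.2.1 chainO0.1 chainO0.2.2 = true := by decide +kernel
  have hlen : chainO0.2.2.length + 1 = tabO.size := by decide +kernel
  have hl : lettersBelow 8 chainO0.2.1 = true := by decide +kernel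
  obtain ⟨O, hO, horb, -⟩ := Tab.orbit_spec goodO (K := refGroup) hok
    (fun w hw => mem_closure_letters hl w hw) (by decide +kernel)
  have huniv : O = Finset.univ := Finset.eq_univ_of_card _ (by rw [hO, hlen, Fintype.card_fin])
  obtain ⟨⟨τ, hτ⟩, hτi⟩ := horb i (huniv ▸ Finset.mem_univ (α := Fin tabO.size) i)
  have hτi' : τ (0 : Fin 351) = i := hτi
  exact ((congrArg (⇑σ) hτi'.symm).trans ((hc τ hτ 0).trans (congrArg (⇑τ) h0))).trans hτi'

theorem center_le : Subgroup.center _ ≤ omegaMove.ker := fun z hz => eq_one_of_commute _ fun τ hτ => by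
  obtain ⟨y, rfl⟩ := refGroup_le_omega hτ
  rw [← map_mul, ← map_mul, Subgroup.mem_center_iff.1 hz y]

/-- The action of the projective group. -/
noncomputable def projMove :
    Cfsg.POmega (ZMod 3) (Cfsg.quadFormOdd 3 (ZMod 3)) →* Equiv.Perm (Fin 351) :=
  QuotientGroup.lift _ omegaMove center_le

theorem card_POmega7 : Nat.card (Cfsg.POmega (ZMod 3) (Cfsg.quadFormOdd 3 (ZMod 3))) = 4585351680 := by
  have h := Cfsg.Agent.Lib.Classical.QuadOmega.card_POmega_odd (F := ZMod 3) (by decide) (m := 3) le_rfl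
  have hv : (3 : ℕ) ^ (3 ^ 2) * ∏ i ∈ Finset.range 3, (3 ^ (2 * (i + 1)) - 1) = 2 * 4585351680 := by
    decide +kernel
  rw [ZMod.card, hv] at h
  exact Nat.eq_of_mul_eq_mul_left (by norm_num : 0 < 2) h

theorem projMove_spec : projMove.range = refGroup ∧ Function.Injective projMove ∧
    Nat.card refGroup = 4585351680 := by
  have hr : refGroup ≤ projMove.range := fun τ hτ => by
    obtain ⟨y, rfl⟩ := refGroup_le_omega hτ
    exact ⟨QuotientGroup.mk y, rfl⟩
  have h1 : Nat.card projMove.range ≤ 4585351680 := card_POmega7 ▸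
    Nat.card_le_card_of_surjective projMove.rangeRestrict projMove.rangeRestrict_surjective
  have h2 := Subgroup.card_le_of_le hr
  have h3 := refGroup_ge
  have hb : Function.Bijective projMove.rangeRestrict :=
    (Nat.bijective_iff_surjective_and_card _).2
      ⟨projMove.rangeRestrict_surjective, by rw [card_POmega7]; omega⟩
  exact ⟨(Subgroup.eq_of_le_of_card_ge hr (by omega)).symm,
    MonoidHom.rangeRestrict_injective_iff.1 hb.injective, by omega⟩

/-- The projective group is the group generated by the reflections. -/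
noncomputable def pOmegaEquiv : Cfsg.POmega (ZMod 3) (Cfsg.quadFormOdd 3 (ZMod 3)) ≃* refGroup :=
  (MonoidHom.ofInjective projMove_spec.2.1).trans (MulEquiv.subgroupCongr projMove_spec.1)

end Cfsg.Agent.Lib.SporPres.FiTwentyTwo.Orth
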